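import Mathlib
import Cfsg.Agent.Lib.Helper32.OPG.Defs
import Cfsg.Agent.Lib.Helper40.SLTwoGen
import Cfsg.Agent.Lib.Helper40.SLTwoGen2

/-!
# Project OPG (S2414): package [GENS]

Two generators of `SL_{N+1}(F)` (`F` finite), the first of order dividing `A` and supported on
the top left `2 × 2` block, and a matrix `M` of `SL₂(F)` with `M 0 0 = 0` of order dividing
`B`, `A` and `B` coprime.
-/

set_option autoImplicit false
open scoped Matrix

namespace Cfsg.Agent.Lib.Helper66.OPG

open Matrix Cfsg.Agent.Lib.Helper40.SLTwoGen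

universe u

section Cox

variable {K : Type u} [Field K] (n : ℕ)

theorem cox_eq_diag_mul_perm :
    cox n K = Matrix.diagonal (eta n K) * (finRotate (n + 1)).permMatrix K := by
  ext i j
  rw [Matrix.diagonal_mul, cox_apply, Equiv.Perm.permMatrix, PEquiv.toMatrix_apply,
    Equiv.toPEquiv_apply]
  simp only [Option.mem_def, Option.some.injEq]
  rw [finRotate_apply]
  by_cases h : j = i + 1
  · rw [if_pos h, if_pos h.symm, mul_one]
  · rw [if_neg h, if_neg (fun h' => h h'.symm), mul_zero]

theorem prod_eta : ∏ i : Fin (n + 1), eta n K i = (-1) ^ n := by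
  rw [Finset.prod_eq_single (Fin.last n)]
  · unfold eta
    rw [if_pos (Fin.val_last n)]
  · intro b _ hb
    unfold eta
    rw [if_neg]
    intro h
    exact hb (Fin.ext (by rw [h, Fin.val_last]))
  · intro h
    exact absurd (Finset.mem_univ _) h

theorem det_cox : (cox n K).det = 1 := by
  rw [cox_eq_diag_mul_perm, Matrix.det_mul, Matrix.det_diagonal, prod_eta, Matrix.det_permutation,
    sign_finRotate]
  have h1 : n + 1 - 1 = n := by omega
  rw [h1]
  push_cast
  rw [← mul_pow]
  norm_num

/-- the monomial matrix `cox` as an element of `SL` -/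
def coxSL : Matrix.SpecialLinearGroup (Fin (n + 1)) K := ⟨cox n K, det_cox n⟩

theorem coe_coxSL : ((coxSL n : Matrix.SpecialLinearGroup (Fin (n + 1)) K) :
    Matrix (Fin (n + 1)) (Fin (n + 1)) K) = cox n K := rfl

end Cox

section Torus

variable {K : Type u} [Field K] (n : ℕ)

/-- the diagonal entries of the torus element -/
def torD (k : Kˣ) : Fin (n + 2) → K :=
  fun i => if i.val = 0 then (k : K) else if i.val = 1 then ((k⁻¹ : Kˣ) : K) else 1

theorem prod_torD (k : Kˣ) : ∏ i : Fin (n + 2), torD n k i = 1 := by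
  rw [Finset.prod_eq_mul (0 : Fin (n + 2)) 1]
  · unfold torD
    have h0 : ((0 : Fin (n + 2)) : ℕ) = 0 := rfl
    have h1 : ((1 : Fin (n + 2)) : ℕ) = 1 := Fin.val_one n
    rw [if_pos h0, if_neg (by rw [h1]; norm_num), if_pos h1, ← Units.val_mul, mul_inv_cancel,
      Units.val_one]
  · intro h
    have := congrArg Fin.val h
    rw [Fin.val_one] at this
    exact absurd this (by norm_num)
  · intro c _ hc
    unfold torD
    rw [if_neg, if_neg]
    · intro h
      exact hc.2 (Fin.ext (by rw [h, Fin.val_one]))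
    · intro h
      exact hc.1 (Fin.ext (by rw [h]; rfl))
  · intro h
    exact absurd (Finset.mem_univ _) h
  · intro h
    exact absurd (Finset.mem_univ _) h

/-- the torus element `diag(k, k⁻¹, 1, …, 1)` -/
def torSL (k : Kˣ) : Matrix.SpecialLinearGroup (Fin (n + 2)) K :=
  ⟨Matrix.diagonal (torD n k), by rw [Matrix.det_diagonal, prod_torD]⟩

theorem coe_torSL (k : Kˣ) : ((torSL n k : Matrix.SpecialLinearGroup (Fin (n + 2)) K) :
    Matrix (Fin (n + 2)) (Fin (n + 2)) K) = Matrix.diagonal (torD n k) := rfl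

theorem torSL_pow [Fintype K] (k : Kˣ) : torSL n k ^ (Fintype.card K - 1) = 1 := by
  apply Subtype.ext
  rw [Matrix.SpecialLinearGroup.coe_pow, coe_torSL, Matrix.diagonal_pow,
    Matrix.SpecialLinearGroup.coe_one, ← Matrix.diagonal_one]
  congr 1
  funext i
  show torD n k i ^ (Fintype.card K - 1) = 1
  unfold torD
  split_ifs
  · exact FiniteField.pow_card_sub_one_eq_one _ k.ne_zero
  · exact FiniteField.pow_card_sub_one_eq_one _ (k⁻¹).ne_zero
  · exact one_pow _

theorem torSL_std (k : Kˣ) (i : Fin (n + 2)) (hi : 2 ≤ i.val) :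
    (∀ j, (torSL n k : Matrix (Fin (n + 2)) (Fin (n + 2)) K) i j =
        (1 : Matrix (Fin (n + 2)) (Fin (n + 2)) K) i j) ∧
      (∀ j, (torSL n k : Matrix (Fin (n + 2)) (Fin (n + 2)) K) j i =
        (1 : Matrix (Fin (n + 2)) (Fin (n + 2)) K) j i) := by
  have hd : torD n k i = 1 := by
    unfold torD
    rw [if_neg (by omega), if_neg (by omega)]
  constructor
  · intro j
    rw [coe_torSL, Matrix.diagonal_apply, Matrix.one_apply]
    by_cases h : i = j
    · rw [if_pos h, if_pos h, hd]
    · rw [if_neg h, if_neg h]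
  · intro j
    rw [coe_torSL, Matrix.diagonal_apply, Matrix.one_apply]
    by_cases h : j = i
    · rw [if_pos h, if_pos h, h, hd]
    · rw [if_neg h, if_neg h]

end Torus

section Mix

variable {K : Type u} [Field K]

/-- the unipotent mixing matrix `!![0, 1; -1, 2]` -/
def mixU : Matrix.SpecialLinearGroup (Fin 2) K :=
  ⟨!![0, 1; -1, 2], by rw [Matrix.det_fin_two_of]; ring⟩

theorem mixU_pow (m : ℕ) : ((mixU : Matrix.SpecialLinearGroup (Fin 2) K) ^ m :
    Matrix.SpecialLinearGroup (Fin 2) K).1 = !![1 - (m : K), (m : K); -(m : K), 1 + (m : K)] := by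
  induction m with
  | zero =>
    rw [pow_zero]
    ext i j
    fin_cases i <;> fin_cases j <;> simp
  | succ m ih =>
    rw [pow_succ]
    show ((mixU : Matrix.SpecialLinearGroup (Fin 2) K) ^ m).1 * (mixU : Matrix.SpecialLinearGroup (Fin 2) K).1 = _
    rw [ih]
    show !![1 - (m : K), (m : K); -(m : K), 1 + (m : K)] * !![0, 1; -1, 2] = _
    rw [Matrix.mul_fin_two]
    push_cast
    congr 1
    ext i j
    fin_cases i <;> fin_cases j <;> simp <;> ring

theorem mixU_pow_card [Fintype K] : (mixU : Matrix.SpecialLinearGroup (Fin 2) K) ^ Fintype.card K = 1 := by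
  apply Subtype.ext
  rw [mixU_pow, FiniteField.cast_card_eq_zero]
  ext i j
  fin_cases i <;> fin_cases j <;> simp

/-- the mixing matrix of order 4 -/
def mix4 : Matrix.SpecialLinearGroup (Fin 2) K :=
  ⟨!![0, 1; -1, 0], by rw [Matrix.det_fin_two_of]; ring⟩

theorem mix4_pow : (mix4 : Matrix.SpecialLinearGroup (Fin 2) K) ^ 4 = 1 := by
  apply Subtype.ext
  rw [Matrix.SpecialLinearGroup.coe_pow]
  show (!![0, 1; -1, 0] : Matrix (Fin 2) (Fin 2) K) ^ 4 = 1
  rw [show (4 : ℕ) = 2 + 2 from rfl, pow_add, pow_two, Matrix.mul_fin_two, Matrix.mul_fin_two]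
  ext i j
  fin_cases i <;> fin_cases j <;> simp

/-- the mixing matrix of order 3 -/
def mix3 : Matrix.SpecialLinearGroup (Fin 2) K :=
  ⟨!![0, 1; -1, -1], by rw [Matrix.det_fin_two_of]; ring⟩

theorem mix3_pow : (mix3 : Matrix.SpecialLinearGroup (Fin 2) K) ^ 3 = 1 := by
  apply Subtype.ext
  rw [Matrix.SpecialLinearGroup.coe_pow]
  show (!![0, 1; -1, -1] : Matrix (Fin 2) (Fin 2) K) ^ 3 = 1
  rw [show (3 : ℕ) = 2 + 1 from rfl, pow_add, pow_two, pow_one, Matrix.mul_fin_two,
    Matrix.mul_fin_two]
  ext i j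
  fin_cases i <;> fin_cases j <;> simp

end Mix

/-- [GENS] -/
theorem pkgGens : Cfsg.Agent.Lib.Helper32.OPG.PkgGens.{u} := by
  intro F _ _ N hN
  obtain ⟨n, rfl⟩ : ∃ n, N = n + 1 := ⟨N - 1, by omega⟩
  have hn : 1 ≤ n + 1 := by omega
  have h01 : (0 : Fin (n + 1 + 1)) ≠ 1 := (one_ne_zero_fin hn).symm
  by_cases hK : 3 < Fintype.card F
  · -- large field
    obtain ⟨k, hk⟩ := IsCyclic.exists_generator (α := Fˣ)
    refine ⟨torSL n k, Matrix.SpecialLinearGroup.transvection h01 1 * coxSL (n + 1), mixU,
      Fintype.card F - 1, Fintype.card F, ?_, ?_, torSL_pow n k, mixU_pow_card, rfl, ?_⟩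
    · have h1 : Fintype.card F = (Fintype.card F - 1) + 1 := by omega
      rw [h1, Nat.add_sub_cancel]
      exact (Nat.coprime_self_add_right).mpr (Nat.coprime_one_right _)
    · exact closure_eq_top_of_torus hK hn k hk (torSL n k)
        (Matrix.SpecialLinearGroup.transvection h01 1) (coxSL (n + 1)) rfl rfl rfl
    · intro i hi
      exact torSL_std n k i hi
  · -- small field
    rw [not_lt] at hK
    have hx : Matrix.SpecialLinearGroup.transvection h01 (1 : F) ^ Fintype.card F = 1 := by
      rw [← transvection_natCast_eq_pow, FiniteField.cast_card_eq_zero,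
        Matrix.SpecialLinearGroup.transvection_coeff_zero]
    have htop : Subgroup.closure ({Matrix.SpecialLinearGroup.transvection h01 (1 : F),
        coxSL (n + 1)} : Set (Matrix.SpecialLinearGroup (Fin (n + 1 + 1)) F)) = ⊤ := by
      apply eq_top_of_cox_of_root hn _ (coxSL (n + 1)) rfl
        (Subgroup.subset_closure (by simp))
      intro h01' c
      obtain ⟨m, rfl⟩ := exists_natCast_of_card_le_three hK c
      rw [transvection_natCast_eq_pow]
      exact Subgroup.pow_mem _ (Subgroup.subset_closure (by simp)) m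
    have hstd : ∀ i : Fin (n + 1 + 1), 2 ≤ i.val →
        (∀ j, (Matrix.SpecialLinearGroup.transvection h01 (1 : F) :
            Matrix (Fin (n + 1 + 1)) (Fin (n + 1 + 1)) F) i j =
          (1 : Matrix (Fin (n + 1 + 1)) (Fin (n + 1 + 1)) F) i j) ∧
        (∀ j, (Matrix.SpecialLinearGroup.transvection h01 (1 : F) :
            Matrix (Fin (n + 1 + 1)) (Fin (n + 1 + 1)) F) j i =
          (1 : Matrix (Fin (n + 1 + 1)) (Fin (n + 1 + 1)) F) j i) := by
      intro i hi
      have hi0 : i ≠ 0 := by
        intro h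
        rw [h] at hi
        simp at hi
      have hi1 : i ≠ 1 := by
        intro h
        rw [h, Fin.val_one] at hi
        omega
      constructor
      · intro j
        rw [Matrix.SpecialLinearGroup.transvection_coe, Matrix.add_apply,
          Matrix.single_apply_of_row_ne (Ne.symm hi0), add_zero]
      · intro j
        rw [Matrix.SpecialLinearGroup.transvection_coe, Matrix.add_apply,
          Matrix.single_apply_of_col_ne _ _ (Ne.symm hi1), add_zero]
    have hcard2 : 2 ≤ Fintype.card F := Fintype.one_lt_card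
    have hcases : Fintype.card F = 2 ∨ Fintype.card F = 3 := by omega
    rcases hcases with h2 | h3
    · refine ⟨Matrix.SpecialLinearGroup.transvection h01 1, coxSL (n + 1), mix3,
        Fintype.card F, 3, ?_, htop, hx, mix3_pow, rfl, hstd⟩
      rw [h2]
      decide
    · refine ⟨Matrix.SpecialLinearGroup.transvection h01 1, coxSL (n + 1), mix4,
        Fintype.card F, 4, ?_, htop, hx, mix4_pow, rfl, hstd⟩
      rw [h3]
      decide

end Cfsg.Agent.Lib.Helper66.OPG
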