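import Mathlib
import Cfsg.Agent.Lib.Helper66.OPG.Gens

/-!
# Two generators of `SL_{N+1}(F)`, `N ≥ 1` (generalisation of package [GENS] of project OPG)

Same statement as `Cfsg.Agent.Lib.Helper32.OPG.PkgGens` but for every `N ≥ 1`, plus the uniform
exponent `q (q - 1)` for the first generator.
-/

set_option autoImplicit false
open scoped Matrix

namespace Cfsg.Agent.Lib.Helper66.OPG

open Matrix Cfsg.Agent.Lib.Helper40.SLTwoGen

universe u

/-- [GENS] for every `N ≥ 1` -/
theorem gens_general (F : Type u) [Field F] [Fintype F] (N : ℕ) (hN : 1 ≤ N) :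
    ∃ (g₁ g₂ : Matrix.SpecialLinearGroup (Fin (N + 1)) F)
      (M : Matrix.SpecialLinearGroup (Fin 2) F) (A B : ℕ),
      Nat.Coprime A B ∧ A ∣ Fintype.card F * (Fintype.card F - 1) ∧
      Subgroup.closure ({g₁, g₂} : Set (Matrix.SpecialLinearGroup (Fin (N + 1)) F)) = ⊤ ∧
      g₁ ^ A = 1 ∧ M ^ B = 1 ∧ (M : Matrix (Fin 2) (Fin 2) F) 0 0 = 0 ∧
      ∀ i : Fin (N + 1), 2 ≤ i.val →
        (∀ j, (g₁ : Matrix (Fin (N + 1)) (Fin (N + 1)) F) i j =
          (1 : Matrix (Fin (N + 1)) (Fin (N + 1)) F) i j) ∧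
        (∀ j, (g₁ : Matrix (Fin (N + 1)) (Fin (N + 1)) F) j i =
          (1 : Matrix (Fin (N + 1)) (Fin (N + 1)) F) j i) := by
  obtain ⟨n, rfl⟩ : ∃ n, N = n + 1 := ⟨N - 1, by omega⟩
  have hn : 1 ≤ n + 1 := by omega
  have h01 : (0 : Fin (n + 1 + 1)) ≠ 1 := (one_ne_zero_fin hn).symm
  by_cases hK : 3 < Fintype.card F
  · -- large field
    obtain ⟨k, hk⟩ := IsCyclic.exists_generator (α := Fˣ)
    refine ⟨torSL n k, Matrix.SpecialLinearGroup.transvection h01 1 * coxSL (n + 1), mixU,
      Fintype.card F - 1, Fintype.card F, ?_, Dvd.intro_left _ rfl, ?_, torSL_pow n k,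
      mixU_pow_card, rfl, ?_⟩
    · have h1 : Fintype.card F = (Fintype.card F - 1) + 1 := by omega
      rw [h1, Nat.add_sub_cancel]
      exact (Nat.coprime_self_add_right).mpr (Nat.coprime_one_right _)
    · exact closure_eq_top_of_torus hK hn k hk (torSL n k)
        (Matrix.SpecialLinearGroup.transvection h01 1) (coxSL (n + 1)) rfl rfl rfl
    · intro i hi
      exact torSL_std n k i hi
  · -- small field
    rw [not_lt] at hK
    have hx : Matrix.SpecialLinearGroup.transvection h01 (1 : F) ^ Fintype.card F = 1 := by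
      rw [← transvection_natCast_eq_pow, FiniteField.cast_card_eq_zero,
        Matrix.SpecialLinearGroup.transvection_coeff_zero]
    have htop : Subgroup.closure ({Matrix.SpecialLinearGroup.transvection h01 (1 : F),
        coxSL (n + 1)} : Set (Matrix.SpecialLinearGroup (Fin (n + 1 + 1)) F)) = ⊤ := by
      apply eq_top_of_cox_of_root hn _ (coxSL (n + 1)) rfl
        (Subgroup.subset_closure (by simp))
      intro h01' c
      obtain ⟨m, rfl⟩ := exists_natCast_of_card_le_three hK c
      rw [transvection_natCast_eq_pow]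
      exact Subgroup.pow_mem _ (Subgroup.subset_closure (by simp)) m
    have hstd : ∀ i : Fin (n + 1 + 1), 2 ≤ i.val →
        (∀ j, (Matrix.SpecialLinearGroup.transvection h01 (1 : F) :
            Matrix (Fin (n + 1 + 1)) (Fin (n + 1 + 1)) F) i j =
          (1 : Matrix (Fin (n + 1 + 1)) (Fin (n + 1 + 1)) F) i j) ∧
        (∀ j, (Matrix.SpecialLinearGroup.transvection h01 (1 : F) :
            Matrix (Fin (n + 1 + 1)) (Fin (n + 1 + 1)) F) j i =
          (1 : Matrix (Fin (n + 1 + 1)) (Fin (n + 1 + 1)) F) j i) := by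
      intro i hi
      have hi0 : i ≠ 0 := by
        intro h
        rw [h] at hi
        simp at hi
      have hi1 : i ≠ 1 := by
        intro h
        rw [h, Fin.val_one] at hi
        omega
      constructor
      · intro j
        rw [Matrix.SpecialLinearGroup.transvection_coe, Matrix.add_apply,
          Matrix.single_apply_of_row_ne (Ne.symm hi0), add_zero]
      · intro j
        rw [Matrix.SpecialLinearGroup.transvection_coe, Matrix.add_apply,
          Matrix.single_apply_of_col_ne _ _ (Ne.symm hi1), add_zero]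
    have hcard2 : 2 ≤ Fintype.card F := Fintype.one_lt_card
    have hcases : Fintype.card F = 2 ∨ Fintype.card F = 3 := by omega
    rcases hcases with h2 | h3
    · refine ⟨Matrix.SpecialLinearGroup.transvection h01 1, coxSL (n + 1), mix3,
        Fintype.card F, 3, ?_, Dvd.intro _ rfl, htop, hx, mix3_pow, rfl, hstd⟩
      rw [h2]
      decide
    · refine ⟨Matrix.SpecialLinearGroup.transvection h01 1, coxSL (n + 1), mix4,
        Fintype.card F, 4, ?_, Dvd.intro _ rfl, htop, hx, mix4_pow, rfl, hstd⟩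
      rw [h3]
      decide


/-- two generators of `SL_{N+1}(F)`, the first of exponent dividing `q (q - 1)` and supported on
the top left `2 × 2` block -/
theorem gens_uniform (F : Type u) [Field F] [Fintype F] (N : ℕ) (hN : 1 ≤ N) :
    ∃ (g₁ g₂ : Matrix.SpecialLinearGroup (Fin (N + 1)) F),
      Subgroup.closure ({g₁, g₂} : Set (Matrix.SpecialLinearGroup (Fin (N + 1)) F)) = ⊤ ∧
      g₁ ^ (Fintype.card F * (Fintype.card F - 1)) = 1 ∧
      ∀ i : Fin (N + 1), 2 ≤ i.val →
        (∀ j, (g₁ : Matrix (Fin (N + 1)) (Fin (N + 1)) F) i j =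
          (1 : Matrix (Fin (N + 1)) (Fin (N + 1)) F) i j) ∧
        (∀ j, (g₁ : Matrix (Fin (N + 1)) (Fin (N + 1)) F) j i =
          (1 : Matrix (Fin (N + 1)) (Fin (N + 1)) F) j i) := by
  obtain ⟨g₁, g₂, M, A, B, -, hdvd, htop, hA, -, -, hstd⟩ := gens_general F N hN
  refine ⟨g₁, g₂, htop, ?_, hstd⟩
  obtain ⟨c, hc⟩ := hdvd
  rw [hc, pow_mul, hA, one_pow]

end Cfsg.Agent.Lib.Helper66.OPG
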