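import Mathlib
import Cfsg.Agent.Lib.Helper32.OPG.Defs
import Cfsg.Agent.Lib.Helper5.SLGen

/-!
# Project OPG (S2414): package [UOM]

The `SL₂` of a hyperbolic quadruple lies in `Ω` (from [SIEGOM]).
-/

set_option autoImplicit false
open scoped Matrix

namespace Cfsg.Agent.Lib.Helper66.OPG

open Cfsg.Agent.Lib.Helper31.Siegel Cfsg.Agent.Lib.Helper32.Siegel Cfsg.Agent.Lib.Helper32.OPG

universe u

/-- the upper transvection of `SL₂` maps into the fix set of `(p, r)` -/
theorem sl2Hom_upper_mem {n : ℕ} {F : Type u} [Field F] {p r s t : Vec n F} (h : Hyp4 p r s t)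
    (hij : (0 : Fin 2) ≠ 1) (c : F) :
    sl2Hom h (Matrix.SpecialLinearGroup.transvection hij c) ∈ fixSet p r := by
  rw [mem_fixSet]
  intro v hvp hvr
  rw [sl2Hom_act, sl2Lin_apply, hvp, hvr, Matrix.SpecialLinearGroup.transvection_coe]
  simp

/-- the lower transvection of `SL₂` maps into the fix set of `(s, t)` -/
theorem sl2Hom_lower_mem {n : ℕ} {F : Type u} [Field F] {p r s t : Vec n F} (h : Hyp4 p r s t)
    (hij : (1 : Fin 2) ≠ 0) (c : F) :
    sl2Hom h (Matrix.SpecialLinearGroup.transvection hij c) ∈ fixSet s t := by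
  rw [mem_fixSet]
  intro v hvs hvt
  rw [sl2Hom_act, sl2Lin_apply, hvs, hvt, Matrix.SpecialLinearGroup.transvection_coe]
  simp

/-- [UOM] from [SIEGOM] -/
theorem pkgUOm_of (hS : PkgSiegOm.{u}) : PkgUOm.{u} := by
  intro n F _ _ hn p r s t h M
  have hpr : IsSingLine p r := isSingLine_of s t h.ps h.rs h.rt h.Qp h.Qr h.pr
  have hst : IsSingLine s t := isSingLine_of p r h.sp h.tp h.tr h.Qs h.Qt h.st
  have h1 := hS n F hn p r hpr
  have h2 := hS n F hn s t hst
  have htop : (Cfsg.Omega F (Cfsg.quadFormPlus n F)).comap (sl2Hom h) = ⊤ := by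
    apply Cfsg.Agent.Lib.Helper5.eq_top_of_transvection_mem
    intro i j hij c
    rw [Subgroup.mem_comap]
    have hcases : (i = 0 ∧ j = 1) ∨ (i = 1 ∧ j = 0) := by
      revert hij
      fin_cases i <;> fin_cases j <;> simp
    rcases hcases with ⟨rfl, rfl⟩ | ⟨rfl, rfl⟩
    · exact h1 (Subgroup.subset_closure (sl2Hom_upper_mem h hij c))
    · exact h2 (Subgroup.subset_closure (sl2Hom_lower_mem h hij c))
  have hM : M ∈ (Cfsg.Omega F (Cfsg.quadFormPlus n F)).comap (sl2Hom h) := by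
    rw [htop]
    exact Subgroup.mem_top M
  exact hM

end Cfsg.Agent.Lib.Helper66.OPG
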