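import Mathlib
import Cfsg.Agent.Lib.Helper32.OPG.Defs
import Cfsg.Agent.Lib.Helper76.Siegel.Exist

/-!
# Project OPG (S2414): package [YZ]

The mixing element `u = sl2Hom (e_a, e_b, f_a, f_b) M`, `M 0 0 = 0`, conjugates `X` root
groups to a `Y` root group and a `Z` root group.
-/

set_option autoImplicit false
open scoped Matrix

namespace Cfsg.Agent.Lib.Helper66.OPG

open Cfsg.Agent.Lib.Helper31.Siegel Cfsg.Agent.Lib.Helper32.Siegel Cfsg.Agent.Lib.Helper32.OPG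

universe u

section

variable {n : ℕ} {F : Type u} [Field F]

/-- conjugation of a Siegel transvection by an isometry -/
theorem isSiegel_conj {p r : Vec n F} {c : F} {σ : ↥(Iso n F)} (g : ↥(Iso n F))
    (hσ : IsSiegel p r c σ) : IsSiegel (mat g *ᵥ p) (mat g *ᵥ r) c (g * σ * g⁻¹) := by
  intro v
  have h1 : B (mat g⁻¹ *ᵥ v) r = B v (mat g *ᵥ r) := by
    rw [← B_act g (mat g⁻¹ *ᵥ v) r, act_inv]
  have h2 : B (mat g⁻¹ *ᵥ v) p = B v (mat g *ᵥ p) := by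
    rw [← B_act g (mat g⁻¹ *ᵥ v) p, act_inv]
  rw [mul_act, mul_act, hσ, Matrix.mulVec_sub, Matrix.mulVec_add, Matrix.mulVec_smul,
    Matrix.mulVec_smul, act_inv, h1, h2]

theorem isSiegel_of_smul_left {p r : Vec n F} {c m : F} {σ : ↥(Iso n F)}
    (hσ : IsSiegel (m • p) r c σ) : IsSiegel p r (m * c) σ := by
  intro v
  rw [hσ v, B_smul_right]
  module

theorem isSiegel_of_smul_right {p r : Vec n F} {c m : F} {σ : ↥(Iso n F)}
    (hσ : IsSiegel p (m • r) c σ) : IsSiegel p r (m * c) σ := by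
  intro v
  rw [hσ v, B_smul_right]
  module

variable {a b : Fin n} (hab : a ≠ b) (M : Matrix.SpecialLinearGroup (Fin 2) F)

theorem mix_E_a (h0 : (M : Matrix (Fin 2) (Fin 2) F) 0 0 = 0) :
    mat (sl2Hom (hyp4 (F := F) hab) M) *ᵥ (E a : Vec n F) =
      (M : Matrix (Fin 2) (Fin 2) F) 1 0 • (Fv b : Vec n F) := by
  rw [sl2Hom_act, sl2Lin_apply, B_E_Fv, B_E_E, B_E_Fv, B_E_E, if_pos rfl, if_neg hab, h0]
  module

theorem mix_E_b (h0 : (M : Matrix (Fin 2) (Fin 2) F) 0 0 = 0) :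
    mat (sl2Hom (hyp4 (F := F) hab) M) *ᵥ (E b : Vec n F) =
      (-(M : Matrix (Fin 2) (Fin 2) F) 1 0) • (Fv a : Vec n F) := by
  rw [sl2Hom_act, sl2Lin_apply, B_E_Fv, B_E_E, B_E_Fv, B_E_E, if_pos rfl, if_neg (Ne.symm hab),
    h0]
  module

theorem mix_E_i {i : Fin n} (hia : i ≠ a) (hib : i ≠ b) :
    mat (sl2Hom (hyp4 (F := F) hab) M) *ᵥ (E i : Vec n F) = E i := by
  rw [sl2Hom_act, sl2Lin_apply, B_E_Fv, B_E_E, B_E_Fv, B_E_E, if_neg hia, if_neg hib]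
  module

theorem mix_Fv_i {i : Fin n} (hia : i ≠ a) (hib : i ≠ b) :
    mat (sl2Hom (hyp4 (F := F) hab) M) *ᵥ (Fv i : Vec n F) = Fv i := by
  rw [sl2Hom_act, sl2Lin_apply, B_Fv_Fv, B_Fv_E, B_Fv_Fv, B_Fv_E, if_neg hia, if_neg hib]
  module

end

/-- [YZ] -/
theorem pkgYZ : PkgYZ.{u} := by
  intro n F _ a b hab M h0 K hX hu i hia hib
  have hdet := M.2
  rw [Matrix.det_fin_two, h0, zero_mul, zero_sub] at hdet
  have h01 : (M : Matrix (Fin 2) (Fin 2) F) 0 1 ≠ 0 := by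
    intro h
    rw [h, zero_mul, neg_zero] at hdet
    exact zero_ne_one hdet
  have h10 : (M : Matrix (Fin 2) (Fin 2) F) 1 0 ≠ 0 := by
    intro h
    rw [h, mul_zero, neg_zero] at hdet
    exact zero_ne_one hdet
  -- the inverse of `u` on `f_a` and `e_i`
  have huinv_fa : mat (sl2Hom (hyp4 (F := F) hab) M)⁻¹ *ᵥ (Fv a : Vec n F) =
      (M : Matrix (Fin 2) (Fin 2) F) 0 1 • (E b : Vec n F) := by
    have h1 : mat (sl2Hom (hyp4 (F := F) hab) M) *ᵥ
        ((M : Matrix (Fin 2) (Fin 2) F) 0 1 • (E b : Vec n F)) = Fv a := by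
      rw [Matrix.mulVec_smul, mix_E_b hab M h0, smul_smul]
      have : (M : Matrix (Fin 2) (Fin 2) F) 0 1 * -(M : Matrix (Fin 2) (Fin 2) F) 1 0 = 1 := by
        rw [mul_neg]
        exact hdet
      rw [this, one_smul]
    have h2 := inv_act (sl2Hom (hyp4 (F := F) hab) M)
      ((M : Matrix (Fin 2) (Fin 2) F) 0 1 • (E b : Vec n F))
    rw [h1] at h2
    exact h2
  have huinv_ei : mat (sl2Hom (hyp4 (F := F) hab) M)⁻¹ *ᵥ (E i : Vec n F) = E i := by
    have h2 := inv_act (sl2Hom (hyp4 (F := F) hab) M) (E i : Vec n F)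
    rw [mix_E_i hab M hia hib] at h2
    exact h2
  constructor
  · -- the `Y` root group
    intro c σ hσ
    obtain ⟨τ, hτ⟩ := Cfsg.Agent.Lib.Helper76.Siegel.pkgExist n F (E i) (Fv a)
      (isSingLine_E_Fv hia) (c / (M : Matrix (Fin 2) (Fin 2) F) 0 1)
    have hτK : τ ∈ K := hX i a (Set.mem_univ _) (Set.mem_univ _) hia _ τ hτ
    have h1 := isSiegel_conj (sl2Hom (hyp4 (F := F) hab) M)⁻¹ hτ
    rw [huinv_fa, huinv_ei] at h1
    have h2 := isSiegel_of_smul_right h1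
    rw [mul_div_cancel₀ _ h01] at h2
    rw [isSiegel_ext hσ h2]
    exact K.mul_mem (K.mul_mem (K.inv_mem hu) hτK) (K.inv_mem (K.inv_mem hu))
  · -- the `Z` root group
    intro c σ hσ
    obtain ⟨τ, hτ⟩ := Cfsg.Agent.Lib.Helper76.Siegel.pkgExist n F (E a) (Fv i)
      (isSingLine_E_Fv (Ne.symm hia)) (c / (M : Matrix (Fin 2) (Fin 2) F) 1 0)
    have hτK : τ ∈ K := hX a i (Set.mem_univ _) (Set.mem_univ _) (Ne.symm hia) _ τ hτ
    have h1 := isSiegel_conj (sl2Hom (hyp4 (F := F) hab) M) hτ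
    rw [mix_E_a hab M h0, mix_Fv_i hab M hia hib] at h1
    have h2 := isSiegel_of_smul_left h1
    rw [mul_div_cancel₀ _ h10] at h2
    rw [isSiegel_ext hσ h2]
    exact K.mul_mem (K.mul_mem hu hτK) (K.inv_mem hu)

end Cfsg.Agent.Lib.Helper66.OPG
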